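import Cfsg.Agent.H813.OctHyp
import Cfsg.Agent.S1556
import Cfsg.Agent.S0358

/-!
# The sign change on an octad: pointwise stabiliser and fixed points in the quotient
-/

set_option autoImplicit false

namespace Cfsg.Agent.H813.OctFix

open Cfsg
open Cfsg.Agent.SporadicA.Co0Mono hiding smul_add smul_sub smul_neg smul_zero
open Cfsg.Agent.SporadicA.Co1Simple
open Cfsg.Agent.SporadicStructure.Co0Base (e8 e8_coe)
open Cfsg.Agent.CoOneType.SignFacts
open Cfsg.Agent.CoOneType.CoOneE (pr pr_surjective E mem_E)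
open Cfsg.Agent.MonsterU.Lam2
open Cfsg.Agent.MonsterU.CoFrame
open Cfsg.Agent.MonsterU.CoFrameAct
open Cfsg.Agent.MonsterU.CoFrameL2
open Cfsg.Agent.MonsterU.CoFrameF (toM24 toM24_eq toM24_surjective toM24_eq_one_iff exists_of_mem_F sp_mem_F)
open Cfsg.Agent.H848.TrioU (pairL pairL_cl pairL_add pairL_zero pairL_add_right pairL_zero_right mem_W1_iff_pairL
  sign_smul pairL_sign pairL_perm pairL_sp perm_mem_W12 zero_or_one)
open Cfsg.Agent.H848.Oct
open Cfsg.Agent.H813.OctLat Cfsg.Agent.H813.OctHyp
open Cfsg.Spor (Co1)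
open scoped Pointwise Matrix

theorem eq_of_add : ∀ a b : ZMod 2, a + b = 0 → a = b := by decide

theorem self_add : ∀ a : ZMod 2, a + a = 0 := by decide

/-! ### fixed points in `W12` -/

theorem mem_W16_iff {o : golayCode} {x : L2} (hx : x ∈ W12) : x ∈ W16 o ↔ pairL x o = 0 := by
  rw [mem_W16, eps, sign_smul hx]
  by_cases h : pairL x o = 0
  · rw [if_pos h, add_zero]
    exact ⟨fun _ => h, fun _ => rfl⟩
  · rw [if_neg h]
    exact ⟨fun hc => absurd (left_eq_add.1 hc.symm) f0_ne, fun hc => absurd hc h⟩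

theorem duad_mem_W12 (i j : GolayPt) : cl (duad i j) ∈ W12 := cl_mem_W12.2 (duad_mem i j)

theorem pairL_duad (i j : GolayPt) (c : golayCode) :
    pairL (cl (duad i j)) c = (c : GolayPt → ZMod 2) i + (c : GolayPt → ZMod 2) j := by
  rw [pairL_cl, pair_duad]

theorem duad_mem_W16 {o : golayCode} {i j : GolayPt} (h : (o : GolayPt → ZMod 2) i = (o : GolayPt → ZMod 2) j) :
    cl (duad i j) ∈ W16 o := by
  rw [mem_W16_iff (duad_mem_W12 i j), pairL_duad, h]
  exact self_add _

/-- two pairs with the same sum modulo the code -/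
theorem pair_eq {a b i j : GolayPt} (hij : i ≠ j)
    (h : ∀ d : golayCode, (d : GolayPt → ZMod 2) a + (d : GolayPt → ZMod 2) b =
      (d : GolayPt → ZMod 2) i + (d : GolayPt → ZMod 2) j) : a = i ∨ a = j := by
  classical
  let w : GolayPt → ZMod 2 := Pi.single a 1 + Pi.single b 1 + (Pi.single i 1 + Pi.single j 1)
  have hw : w ∈ golayCode := by
    apply Cfsg.Agent.SporadicStructure.GolayInterp.mem_golayCode_of_orthogonal
    intro d hd
    have h1 : ∀ p, w p * d p = (if p = a then d p else 0) + (if p = b then d p else 0) +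
        ((if p = i then d p else 0) + (if p = j then d p else 0)) := by
      intro p
      show ((Pi.single a 1 : GolayPt → ZMod 2) p + (Pi.single b 1 : GolayPt → ZMod 2) p +
        ((Pi.single i 1 : GolayPt → ZMod 2) p + (Pi.single j 1 : GolayPt → ZMod 2) p)) * d p = _
      simp only [Pi.single_apply, add_mul, ite_mul, one_mul, zero_mul]
    rw [Finset.sum_congr rfl fun p _ => h1 p, Finset.sum_add_distrib, Finset.sum_add_distrib,
      Finset.sum_add_distrib, Finset.sum_ite_eq', Finset.sum_ite_eq', Finset.sum_ite_eq', Finset.sum_ite_eq']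
    simp only [Finset.mem_univ, if_true]
    have h2 := h ⟨d, hd⟩
    change d a + d b = d i + d j at h2
    rw [h2]
    exact self_add _
  have hsup : ∀ p, p ∈ sup ⟨w, hw⟩ → p ∈ ({a, b, i, j} : Finset GolayPt) := by
    intro p hp
    rw [mem_sup] at hp
    by_contra hc
    simp only [Finset.mem_insert, Finset.mem_singleton, not_or] at hc
    have h3 : w p = 0 := by
      show (Pi.single a 1 : GolayPt → ZMod 2) p + (Pi.single b 1 : GolayPt → ZMod 2) p +
        ((Pi.single i 1 : GolayPt → ZMod 2) p + (Pi.single j 1 : GolayPt → ZMod 2) p) = 0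
      rw [Pi.single_apply, Pi.single_apply, Pi.single_apply, Pi.single_apply, if_neg hc.1, if_neg hc.2.1,
        if_neg hc.2.2.1, if_neg hc.2.2.2]
      decide
    have h4 : w p = 1 := hp
    rw [h3] at h4
    exact zero_ne_one h4
  have hcard : wt ⟨w, hw⟩ ≤ 4 := le_trans (Finset.card_le_card hsup) Finset.card_le_four
  have h0 : sup ⟨w, hw⟩ = ∅ := by
    rw [← Finset.card_eq_zero]
    show wt ⟨w, hw⟩ = 0
    rcases wt_cases ⟨w, hw⟩ with h5 | h5 | h5 | h5 | h5 <;> omega
  by_contra hc
  push Not at hc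
  -- evaluate at a
  have ha : w a = 0 := by
    have : a ∉ sup ⟨w, hw⟩ := by rw [h0]; exact Finset.notMem_empty _
    exact (notMem_sup _ _).1 this
  have hb : w i = 0 := by
    have : i ∉ sup ⟨w, hw⟩ := by rw [h0]; exact Finset.notMem_empty _
    exact (notMem_sup _ _).1 this
  have hj : w j = 0 := by
    have : j ∉ sup ⟨w, hw⟩ := by rw [h0]; exact Finset.notMem_empty _
    exact (notMem_sup _ _).1 this
  change (Pi.single a 1 : GolayPt → ZMod 2) i + (Pi.single b 1 : GolayPt → ZMod 2) i +
        ((Pi.single i 1 : GolayPt → ZMod 2) i + (Pi.single j 1 : GolayPt → ZMod 2) i) = 0 at hb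
  change (Pi.single a 1 : GolayPt → ZMod 2) j + (Pi.single b 1 : GolayPt → ZMod 2) j +
        ((Pi.single i 1 : GolayPt → ZMod 2) j + (Pi.single j 1 : GolayPt → ZMod 2) j) = 0 at hj
  rw [Pi.single_apply, Pi.single_apply, Pi.single_apply, Pi.single_apply, if_neg hc.1.symm, if_pos rfl,
    if_neg hij] at hb
  rw [Pi.single_apply, Pi.single_apply, Pi.single_apply, Pi.single_apply, if_neg hc.2.symm, if_neg hij.symm,
    if_pos rfl] at hj
  by_cases hib : i = b
  · have hjb : j ≠ b := fun hjb => hij (hib.trans hjb.symm)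
    rw [if_neg hjb] at hj
    revert hj; decide
  · rw [if_neg hib] at hb
    revert hb; decide

theorem exists_two {s : Finset GolayPt} (hs : 3 ≤ s.card) {i : GolayPt} (hi : i ∈ s) :
    ∃ j ∈ s, ∃ k ∈ s, i ≠ j ∧ i ≠ k ∧ j ≠ k := by
  classical
  have h1 : 2 ≤ (s.erase i).card := by
    rw [Finset.card_erase_of_mem hi]; omega
  obtain ⟨j, hj, k, hk, hjk⟩ := Finset.one_lt_card.1 (show 1 < (s.erase i).card by omega)
  exact ⟨j, Finset.mem_of_mem_erase hj, k, Finset.mem_of_mem_erase hk, (Finset.ne_of_mem_erase hj).symm,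
    (Finset.ne_of_mem_erase hk).symm, hjk⟩

theorem card_compl_sup {o : golayCode} (ho : wt o = 8) : (sup o)ᶜ.card = 16 := by
  rw [Finset.card_compl]
  have h : Fintype.card GolayPt = 24 := by decide
  rw [h]
  show 24 - wt o = 16
  rw [ho]

/-- around a point there are two more points on the same side of the octad -/
theorem exists_side {o : golayCode} (ho : wt o = 8) (i : GolayPt) :
    ∃ j k, i ≠ j ∧ i ≠ k ∧ j ≠ k ∧ (o : GolayPt → ZMod 2) i = (o : GolayPt → ZMod 2) j ∧
      (o : GolayPt → ZMod 2) i = (o : GolayPt → ZMod 2) k := by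
  by_cases hi : i ∈ sup o
  · obtain ⟨j, hj, k, hk, h1, h2, h3⟩ := exists_two (show 3 ≤ (sup o).card by
      change 3 ≤ wt o; omega) hi
    refine ⟨j, k, h1, h2, h3, ?_, ?_⟩
    · rw [(mem_sup o i).1 hi, (mem_sup o j).1 hj]
    · rw [(mem_sup o i).1 hi, (mem_sup o k).1 hk]
  · obtain ⟨j, hj, k, hk, h1, h2, h3⟩ := exists_two (show 3 ≤ ((sup o)ᶜ).card by
      rw [card_compl_sup ho]; norm_num) (Finset.mem_compl.2 hi)
    rw [Finset.mem_compl] at hj hk
    refine ⟨j, k, h1, h2, h3, ?_, ?_⟩
    · rw [(notMem_sup o i).1 hi, (notMem_sup o j).1 hj]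
    · rw [(notMem_sup o i).1 hi, (notMem_sup o k).1 hk]

theorem pr_allOne : pr (signCo0 allOne) = 1 := (QuotientGroup.eq_one_iff _).2 allOne_mem_center

/-- **The pointwise stabiliser.** -/
theorem eq_of_fix {o : golayCode} (ho : wt o = 8) {g : Co1} (hg : ∀ x ∈ W16 o, x ∈ W12 → g • x = x) :
    g = 1 ∨ g = eps o := by
  have hf0 : g • f0 = f0 := hg f0 (W8_le_W16 o (f0_mem_W8 ho)) (W1_le_W12 f0_mem_W1)
  obtain ⟨c, σ, rfl⟩ := exists_of_mem_F ((mem_F_iff _).2 hf0)
  have hσ : σ = 1 := by
    have h1 : ∀ i j : GolayPt, i ≠ j → (o : GolayPt → ZMod 2) i = (o : GolayPt → ZMod 2) j →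
        (σ : Equiv.Perm GolayPt).symm i = i ∨ (σ : Equiv.Perm GolayPt).symm i = j := by
      intro i j hij hoij
      apply pair_eq (b := (σ : Equiv.Perm GolayPt).symm j) hij
      intro d
      have h2 := pairL_sp (duad_mem_W12 i j) c σ d
      rw [hg _ (duad_mem_W16 hoij) (duad_mem_W12 i j), pairL_duad, pairL_duad] at h2
      exact h2
    have h3 : ∀ i, (σ : Equiv.Perm GolayPt).symm i = i := by
      intro i
      obtain ⟨j, k, hij, hik, hjk, hoj, hok⟩ := exists_side ho i
      rcases h1 i j hij hoj with h | h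
      · exact h
      · rcases h1 i k hik hok with h' | h'
        · exact h'
        · exact absurd (h.symm.trans h') hjk
    apply Subtype.ext
    apply Equiv.ext
    intro i
    have h4 := h3 i
    rw [Equiv.symm_apply_eq] at h4
    exact h4.symm
  subst hσ
  rw [map_one, mul_one] at hg ⊢
  have h1 : ∀ i j : GolayPt, (o : GolayPt → ZMod 2) i = (o : GolayPt → ZMod 2) j →
      (c : GolayPt → ZMod 2) i = (c : GolayPt → ZMod 2) j := by
    intro i j hij
    have h2 := hg _ (duad_mem_W16 hij) (duad_mem_W12 i j)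
    rw [sign_smul (duad_mem_W12 i j)] at h2
    by_contra hc
    have h3 : pairL (cl (duad i j)) c ≠ 0 := by
      rw [pairL_duad]
      exact fun h4 => hc (eq_of_add _ _ h4)
    rw [if_neg h3] at h2
    exact f0_ne (left_eq_add.1 h2.symm)
  obtain ⟨p, hp⟩ : ∃ p, p ∈ sup o := by
    obtain ⟨e⟩ := exists_enum ho
    exact ⟨e 0, (e 0).2⟩
  obtain ⟨q, hq⟩ : ∃ q, q ∉ sup o := by
    have h2 : (sup o)ᶜ.Nonempty := by
      rw [← Finset.card_pos, card_compl_sup ho]; norm_num
    obtain ⟨q, hq⟩ := h2
    exact ⟨q, Finset.mem_compl.1 hq⟩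
  have hop := (mem_sup o p).1 hp
  have hoq := (notMem_sup o q).1 hq
  have key : ∀ i, (c : GolayPt → ZMod 2) i = if (o : GolayPt → ZMod 2) i = 1 then (c : GolayPt → ZMod 2) p else
      (c : GolayPt → ZMod 2) q := by
    intro i
    rcases zero_or_one ((o : GolayPt → ZMod 2) i) with h2 | h2
    · rw [if_neg (by rw [h2]; exact zero_ne_one)]
      exact h1 i q (h2.trans hoq.symm)
    · rw [if_pos h2]
      exact h1 i p (h2.trans hop.symm)
  rcases zero_or_one ((c : GolayPt → ZMod 2) p) with hcp | hcp <;>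
    rcases zero_or_one ((c : GolayPt → ZMod 2) q) with hcq | hcq
  · left
    have : c = 0 := by
      apply Subtype.ext
      funext i
      rw [key i, hcp, hcq]
      split_ifs <;> rfl
    rw [this, signCo0_zero, map_one]
  · right
    have : c = o + allOne := by
      apply Subtype.ext
      funext i
      rw [key i, hcp, hcq]
      show _ = (o : GolayPt → ZMod 2) i + 1
      rcases zero_or_one ((o : GolayPt → ZMod 2) i) with h2 | h2 <;> rw [h2] <;> decide
    rw [this, signCo0_add, map_mul, pr_allOne, mul_one]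
    rfl
  · right
    have : c = o := by
      apply Subtype.ext
      funext i
      rw [key i, hcp, hcq]
      rcases zero_or_one ((o : GolayPt → ZMod 2) i) with h2 | h2 <;> rw [h2] <;> decide
    rw [this]
    rfl
  · left
    have : c = allOne := by
      apply Subtype.ext
      funext i
      rw [key i, hcp, hcq]
      split_ifs <;> rfl
    rw [this, pr_allOne]

/-! ### the commutators inside `W12` -/

/-- restriction to the octad -/
def res (o : golayCode) : golayCode →ₗ[ZMod 2] ({p // p ∈ sup o} → ZMod 2) where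
  toFun c := fun p => (c : GolayPt → ZMod 2) p
  map_add' _ _ := rfl
  map_smul' _ _ := rfl

theorem res_apply (o c : golayCode) (p : {p // p ∈ sup o}) : res o c p = (c : GolayPt → ZMod 2) p := rfl

/-- the pairing as a functional -/
noncomputable def pairF {x : L2} (hx : x ∈ W12) : golayCode →ₗ[ZMod 2] ZMod 2 where
  toFun c := pairL x c
  map_add' := pairL_add_right hx
  map_smul' := Cfsg.Agent.H848.TrioU.pairL_smul_right hx

/-- a class of `W12` whose pairing is trivial on the words disjoint from the octad is a commutator -/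
theorem mem_W8_of_pair {o : golayCode} (ho : wt o = 8) {x : L2} (hx : x ∈ W12)
    (h : ∀ d : golayCode, (∀ p ∈ sup o, (d : GolayPt → ZMod 2) p = 0) → pairL x d = 0) : x ∈ W8 o := by
  classical
  have h1 : pairF hx ∈ (LinearMap.ker (res o)).dualAnnihilator := by
    rw [Submodule.mem_dualAnnihilator]
    intro d hd
    apply h
    intro p hp
    rw [LinearMap.mem_ker] at hd
    exact congrFun hd ⟨p, hp⟩
  rw [← LinearMap.range_dualMap_eq_dualAnnihilator_ker] at h1
  obtain ⟨ψ, hψ⟩ := h1
  let w : {p // p ∈ sup o} → ZMod 2 := fun p => ψ (Pi.single p 1)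
  have hw : ∀ c : golayCode, pairL x c = ∑ p : {p // p ∈ sup o}, w p * (c : GolayPt → ZMod 2) p := by
    intro c
    have h2 : pairL x c = ψ (res o c) := by
      have h3 : pairF hx c = (LinearMap.dualMap (res o) ψ) c := by rw [hψ]
      exact h3
    have h4 : res o c = ∑ p : {p // p ∈ sup o}, (c : GolayPt → ZMod 2) p •
        (Pi.single p 1 : {p // p ∈ sup o} → ZMod 2) := by
      funext q
      rw [Finset.sum_apply, res_apply]
      simp [Pi.single_apply]
    rw [h2, h4, map_sum]
    refine Finset.sum_congr rfl fun p _ => ?_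
    rw [map_smul, smul_eq_mul, mul_comm]
  let z : GolayPt → ℤ := fun p => if hp : p ∈ sup o then (if w ⟨p, hp⟩ = 0 then 0 else 1) else 0
  have hz : ∀ p : {p // p ∈ sup o}, ((z p : ℤ) : ZMod 2) = w p := by
    rintro ⟨p, hp⟩
    show (((if hp : p ∈ sup o then (if w ⟨p, hp⟩ = 0 then 0 else 1) else 0 : ℤ) : ℤ) : ZMod 2) = _
    rw [dif_pos hp]
    rcases zero_or_one (w ⟨p, hp⟩) with h0 | h0 <;> rw [h0] <;> simp
  have hz0 : ∀ p, p ∉ sup o → z p = 0 := fun p hp => dif_neg hp
  have hzsum : ∀ c : golayCode, pairL x c = ∑ p, ((z p : ℤ) : ZMod 2) * (c : GolayPt → ZMod 2) p := by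
    intro c
    rw [hw c]
    have h5 : ∑ p, ((z p : ℤ) : ZMod 2) * (c : GolayPt → ZMod 2) p =
        ∑ p ∈ sup o, ((z p : ℤ) : ZMod 2) * (c : GolayPt → ZMod 2) p := by
      symm
      apply Finset.sum_subset (Finset.subset_univ _)
      intro p _ hp
      rw [hz0 p hp, Int.cast_zero, zero_mul]
    rw [h5, ← Finset.sum_coe_sort (sup o)]
    refine Finset.sum_congr rfl fun p _ => ?_
    rw [hz p]
  have hs : (2 : ℤ) ∣ ∑ p, z p := by
    have h1 := hzsum allOne
    have h2 : pairL x allOne = 0 := by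
      obtain ⟨v, rfl⟩ := cl_surjective x
      rw [pairL_cl]
      exact pair_allOne (cl_mem_W12.1 hx)
    rw [h2] at h1
    have h3 : ((∑ i, z i : ℤ) : ZMod 2) = 0 := by
      rw [Int.cast_sum, h1]
      refine Finset.sum_congr rfl fun i _ => ?_
      show _ = _ * (1 : ZMod 2)
      rw [mul_one]
    exact (ZMod.intCast_zmod_eq_zero_iff_dvd _ 2).1 h3
  let u : leechLattice := ⟨fun i => 4 * z i, Cfsg.Agent.SporadicStructure.Co0Base.four_mul_mem z hs⟩
  have hu12 : u ∈ V12 := four_mem_V12 fun i => dvd_mul_right _ _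
  have hu8 : cl u ∈ W8 o := mem_W8_of_supp ho fun i hi => by
    show 4 * z i = 0
    rw [hz0 i hi, mul_zero]
  have h6 : x + cl u ∈ W1 := by
    rw [mem_W1_iff_pairL (W12.add_mem hx (cl_mem_W12.2 hu12))]
    intro c
    rw [pairL_add, pairL_cl, pair_of_four (w := z) (fun i => rfl) c, hzsum c]
    exact self_add _
  have h7 : x + cl u ∈ W8 o := by
    rcases (mem_W1 _).1 h6 with h8 | h8
    · rw [h8]; exact (W8 o).zero_mem
    · rw [h8]; exact f0_mem_W8 ho
  have h8 : x = (x + cl u) + cl u := by rw [add_assoc, add_self, add_zero]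
  rw [h8]
  exact (W8 o).add_mem h7 hu8

/-- the pairing of a commutator of `W12` with a word disjoint from the octad -/
theorem pair_of_mem_W8 {o : golayCode} {x : L2} (hx : x ∈ W8 o)
    {d : golayCode} (hd : ∀ p ∈ sup o, (d : GolayPt → ZMod 2) p = 0) : pairL x d = 0 := by
  obtain ⟨v, hv, rfl⟩ := exists_supp hx
  rw [pairL_cl, pair_eq_zero_iff]
  have h : ∑ i ∈ sup d, (v : GolayPt → ℤ) i = 0 := by
    apply Finset.sum_eq_zero
    intro i hi
    apply hv
    intro hi'
    rw [mem_sup, hd i hi'] at hi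
    exact zero_ne_one hi
  rw [h]
  exact dvd_zero _

/-- there are at least sixteen words disjoint from the octad -/
theorem card_ker (o : golayCode) (ho : wt o = 8) : 16 ≤ Nat.card (LinearMap.ker (res o)) := by
  have h1 := (res o).toAddMonoidHom.ker.card_mul_index
  rw [AddSubgroup.index_ker, Cfsg.Agent.S0358.card_golayCode] at h1
  have h2 : Nat.card (res o).toAddMonoidHom.range ≤ 256 := by
    have h3 : Nat.card ({p // p ∈ sup o} → ZMod 2) = 256 := by
      rw [Nat.card_fun, Nat.card_eq_fintype_card, Nat.card_eq_fintype_card, ZMod.card, Fintype.card_coe]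
      change 2 ^ wt o = 256
      rw [ho]; norm_num
    rw [← h3]
    exact Nat.card_le_card_of_injective _ Subtype.val_injective
  have h3 : Nat.card (LinearMap.ker (res o)) = Nat.card (res o).toAddMonoidHom.ker := rfl
  rw [h3]
  by_contra hc
  push Not at hc
  have h4 : Nat.card (res o).toAddMonoidHom.ker * Nat.card (res o).toAddMonoidHom.range ≤ 15 * 256 :=
    Nat.mul_le_mul (by omega) h2
  omega

theorem mem_octads {c : golayCode} (hc : wt c = 8) : sup c ∈ octads := ⟨sup_mem c, hc⟩

theorem word_ext {c d : golayCode} (h : sup c = sup d) : c = d := by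
  apply Subtype.ext
  funext i
  rcases zero_or_one ((d : GolayPt → ZMod 2) i) with h1 | h1
  · rw [h1, ← notMem_sup, h, notMem_sup, h1]
  · rw [h1, ← mem_sup, h, mem_sup, h1]

/-- the words disjoint from the octad -/
theorem wt_disjoint {o d : golayCode} (ho : wt o = 8) (hd : ∀ p ∈ sup o, (d : GolayPt → ZMod 2) p = 0)
    (h0 : d ≠ 0) (h1 : d ≠ o + allOne) : wt d = 8 := by
  classical
  have hdisj : Disjoint (sup o) (sup d) := by
    rw [Finset.disjoint_left]
    intro p hp hp'
    rw [mem_sup, hd p hp] at hp'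
    exact zero_ne_one hp'
  have hsup : sup (o + d) = sup o ∪ sup d := by
    ext p
    rw [Finset.mem_union, mem_sup]
    show (o : GolayPt → ZMod 2) p + (d : GolayPt → ZMod 2) p = 1 ↔ _
    by_cases hp : p ∈ sup o
    · rw [(mem_sup o p).1 hp, hd p hp, add_zero]
      exact ⟨fun _ => Or.inl hp, fun _ => rfl⟩
    · rw [(notMem_sup o p).1 hp, zero_add, ← mem_sup]
      exact ⟨fun h => Or.inr h, fun h => h.resolve_left hp⟩
  have hw : wt (o + d) = 8 + wt d := by
    show (sup (o + d)).card = _
    rw [hsup, Finset.card_union_of_disjoint hdisj]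
    show wt o + wt d = _
    rw [ho]
  have h24 : wt (o + d) ≠ 24 := by
    intro hc
    apply h1
    have h2 : sup (o + d) = Finset.univ := by
      apply Finset.eq_univ_of_card
      have : Fintype.card GolayPt = 24 := by decide
      rw [this]; exact hc
    have h3 : o + d = allOne := by
      apply Subtype.ext
      funext p
      have : p ∈ sup (o + d) := by rw [h2]; exact Finset.mem_univ _
      exact (mem_sup _ _).1 this
    rw [← h3, ← add_assoc]
    have h4 : o + o = 0 := signCo0_add_self o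
    rw [h4, zero_add]
  have h00 : wt d ≠ 0 := by
    intro hc
    apply h0
    have h2 : sup d = ∅ := Finset.card_eq_zero.1 hc
    apply Subtype.ext
    funext p
    have : p ∉ sup d := by rw [h2]; exact Finset.notMem_empty _
    exact (notMem_sup _ _).1 this
  rcases wt_cases d with h5 | h5 | h5 | h5 | h5 <;> rcases wt_cases (o + d) with h6 | h6 | h6 | h6 | h6 <;> omega

/-- **No fixed points in the quotient.** -/
theorem mem_W8_of_fix {o : golayCode} (ho : wt o = 8) {x : L2} (hx : x ∈ W12)
    (hg : ∀ g ∈ CO o, g • f0 = f0 → g • x + x ∈ W8 o) : x ∈ W8 o := by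
  classical
  -- the pairing is invariant under the stabiliser of the octad
  have hinv : ∀ σ : M24, wordPerm σ o = o → ∀ d : golayCode, (∀ p ∈ sup o, (d : GolayPt → ZMod 2) p = 0) →
      pairL x (wordPerm σ d) = pairL x d := by
    intro σ hσ d hd
    have hCO : pr (permCo0 σ) ∈ CO o := by
      rw [mem_CO, eps, ← map_mul, ← map_mul, perm_mul_sign, hσ]
    have hF : pr (permCo0 σ) • f0 = f0 := smul_f0 (pr_mem_F (perm_mem_N σ))
    have h1 := hg _ hCO hF
    have hd' : ∀ p ∈ sup o, (wordPerm σ d : GolayPt → ZMod 2) p = 0 := by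
      intro p hp
      rw [wordPerm_apply]
      apply hd
      rw [mem_sup, ← wordPerm_apply, hσ, ← mem_sup]
      exact hp
    have h2 := pair_of_mem_W8 h1 hd'
    rw [pairL_add, pairL_perm] at h2
    exact (eq_of_add _ _ h2).symm
  -- the value on the octads disjoint from the octad is constant
  have hconst : ∀ c d : golayCode, wt c = 8 → wt d = 8 → (∀ p ∈ sup o, (c : GolayPt → ZMod 2) p = 0) →
      (∀ p ∈ sup o, (d : GolayPt → ZMod 2) p = 0) → pairL x c = pairL x d := by
    intro c d hc hd hco hdo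
    have hdis : ∀ b : golayCode, (∀ p ∈ sup o, (b : GolayPt → ZMod 2) p = 0) → sup o ∩ sup b = ∅ := by
      intro b hb
      rw [← Finset.disjoint_iff_inter_eq_empty, Finset.disjoint_left]
      intro p hp hp'
      rw [mem_sup, hb p hp] at hp'
      exact zero_ne_one hp'
    obtain ⟨σ, hσ, hσo, hσc⟩ := Cfsg.Agent.S1556.result (sup o) (sup c) (sup d) (mem_octads ho) (mem_octads hc)
      (mem_octads hd) (by rw [hdis c hco, hdis d hdo])
    have hw : ∀ b : golayCode, sup (wordPerm ⟨σ, hσ⟩ b) = σ • sup b := by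
      intro b
      ext p
      rw [mem_sup, wordPerm_apply, ← Finset.inv_smul_mem_iff, mem_sup]
      rfl
    have h1 : wordPerm ⟨σ, hσ⟩ o = o := word_ext (by rw [hw, hσo])
    have h2 : wordPerm ⟨σ, hσ⟩ c = d := word_ext (by rw [hw, hσc])
    rw [← h2, hinv ⟨σ, hσ⟩ h1 c hco]
  -- a relation between the octads
  have hker : ∀ d : golayCode, (∀ p ∈ sup o, (d : GolayPt → ZMod 2) p = 0) ↔ d ∈ LinearMap.ker (res o) := by
    intro d
    rw [LinearMap.mem_ker]
    constructor
    · intro h
      funext p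
      exact h p p.2
    · intro h p hp
      exact congrFun h ⟨p, hp⟩
  have hone : ∀ p ∈ sup o, ((o + allOne : golayCode) : GolayPt → ZMod 2) p = 0 := by
    intro p hp
    show (o : GolayPt → ZMod 2) p + 1 = 0
    rw [(mem_sup o p).1 hp]; decide
  have hsmall : ∀ T : Finset golayCode, T.card ≤ 15 →
      ∃ d : golayCode, (∀ p ∈ sup o, (d : GolayPt → ZMod 2) p = 0) ∧ d ∉ T := by
    intro T hT
    by_contra hc
    push Not at hc
    have h1 : ((LinearMap.ker (res o) : Submodule _ _) : Set golayCode) ⊆ (T : Set golayCode) := by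
      intro d hd
      exact hc d ((hker d).2 hd)
    have h2 := Set.ncard_le_ncard h1 (Finset.finite_toSet T)
    rw [Set.ncard_coe_finset] at h2
    have h3 := card_ker o ho
    have h4 : ((LinearMap.ker (res o) : Submodule _ _) : Set golayCode).ncard = Nat.card (LinearMap.ker (res o)) := rfl
    omega
  obtain ⟨A, hA, hAT⟩ := hsmall {0, o + allOne} (le_trans Finset.card_le_two (by norm_num))
  obtain ⟨B, hB, hBT⟩ := hsmall {0, o + allOne, A, A + (o + allOne)} (le_trans Finset.card_le_four (by norm_num))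
  simp only [Finset.mem_insert, Finset.mem_singleton, not_or] at hAT hBT
  have hAB : ∀ p ∈ sup o, ((A + B : golayCode) : GolayPt → ZMod 2) p = 0 := by
    intro p hp
    show (A : GolayPt → ZMod 2) p + (B : GolayPt → ZMod 2) p = 0
    rw [hA p hp, hB p hp, add_zero]
  have hself : ∀ c : golayCode, c + c = 0 := signCo0_add_self
  have hAB0 : A + B ≠ 0 := by
    intro hc
    apply hBT.2.2.1
    have h1 : A + (A + B) = B := by rw [← add_assoc, hself, zero_add]
    rw [hc, add_zero] at h1
    exact h1.symm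
  have hAB1 : A + B ≠ o + allOne := by
    intro hc
    apply hBT.2.2.2
    rw [← hc, ← add_assoc, hself, zero_add]
  have wA := wt_disjoint ho hA hAT.1 hAT.2
  have wB := wt_disjoint ho hB hBT.1 hBT.2.1
  have wAB := wt_disjoint ho hAB hAB0 hAB1
  have h0 : pairL x A = 0 := by
    have h1 := pairL_add_right hx A B
    rw [hconst _ _ wAB wA hAB hA, hconst _ _ wB wA hB hA] at h1
    rw [h1]
    exact self_add _
  apply mem_W8_of_pair ho hx
  intro d hd
  by_cases hd0 : d = 0
  · rw [hd0, pairL_zero_right hx]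
  · by_cases hd1 : d = o + allOne
    · have h1 := pairL_add_right hx A (o + allOne)
      have hA1 : ∀ p ∈ sup o, ((A + (o + allOne) : golayCode) : GolayPt → ZMod 2) p = 0 := by
        intro p hp
        show (A : GolayPt → ZMod 2) p + ((o + allOne : golayCode) : GolayPt → ZMod 2) p = 0
        rw [hA p hp, hone p hp, add_zero]
      have w1 : wt (A + (o + allOne)) = 8 := by
        apply wt_disjoint ho hA1
        · intro hc
          apply hAT.2
          have h2 : A + (A + (o + allOne)) = o + allOne := by rw [← add_assoc, hself, zero_add]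
          rw [hc, add_zero] at h2
          exact h2
        · intro hc
          apply hAT.1
          exact add_eq_right.1 hc
      rw [hconst _ _ w1 wA hA1 hA, h0, zero_add] at h1
      rw [hd1]
      exact h1.symm
    · rw [hconst _ _ (wt_disjoint ho hd hd0 hd1) wA hd hA, h0]

end Cfsg.Agent.H813.OctFix
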